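import Cfsg.Agent.Lib.TC.Enc

namespace Cfsg.Agent.Lib.Schur.U62.S4.CT0

open Cfsg.Agent.Lib.TC.Enc

set_option maxRecDepth 100000

/-- A part of the chunks of the certificate. -/
noncomputable def tree : Tr Nat :=
(Tr.leaf (nat_lit 0x9c0a18e973f9f1f9cff9adf98741401f295d24dd22bb183d1d58284b623361dae003a28f20a9050963e663db4bb2e3ca6c2120a0eb728a6e0d7e2b6d496a20141d4cef6e094c854c690c0b82842572a16031d55d582da160508429bcad3428ab27052f8a0a18543364917460954d7450c1430672ee9628781099ac75982801d05ccbad4d254c9d4c42050c1129a15b31f7a146a13440a00636052d621c5320331e44140084544300636a228242c00283844204390430084d00280050e003d802d001c8000084))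

end Cfsg.Agent.Lib.Schur.U62.S4.CT0
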